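import Mathlib
import Cfsg.Agent.Lib.ExtraIso
import Cfsg.Agent.Lib.Extra2.Basic
import Cfsg.Prelude.Def_CaseTheorems

/-!
# Extraspecial 2-groups: number of square roots of the identity, and rank
-/

set_option autoImplicit false
set_option linter.style.haveILetI false

namespace CfsgLib.Extra2.Classify

open CfsgLib.ExtraIso

universe u v

variable {G : Type u} [Group G] [Finite G] {z : G} {C : Subgroup G}

/-- The number of square roots of the identity in a subgroup. -/
noncomputable def sqOne (C : Subgroup G) : ℕ := Nat.card {a : C // (a : G) ^ 2 = 1}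

/-- An elementary abelian subgroup, elementwise. -/
def Elem (A : Subgroup G) : Prop := (∀ a ∈ A, ∀ b ∈ A, Commute a b) ∧ ∀ a ∈ A, a ^ 2 = 1

theorem z_sq (h : Ext 2 z C) : z ^ 2 = 1 := by rw [← h.ord, pow_orderOf_eq_one]

theorem z_ne (h : Ext 2 z C) : z ≠ 1 := fun e => by
  have := h.ord; rw [e, orderOf_one] at this; omega

theorem anti (h : Ext 2 z C) {a b : G} (ha : a ∈ C) (hb : b ∈ C) (hab : ¬ Commute a b) : a * b = z * (b * a) := by
  obtain ⟨k, hk⟩ := h.comm a ha b hb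
  have hz2 : z ^ (2 : ℤ) = 1 := by
    rw [show (2 : ℤ) = ((2 : ℕ) : ℤ) from rfl, zpow_natCast]; exact z_sq h
  rcases Int.even_or_odd' k with ⟨m, rfl | rfl⟩
  · exact absurd (by rw [zpow_mul, hz2, one_zpow, one_mul] at hk; exact hk) hab
  · rw [zpow_add_one, zpow_mul, hz2, one_zpow, one_mul] at hk; exact hk

theorem anti_mul (h : Ext 2 z C) {a b x : G} (ha : a ∈ C) (hb : b ∈ C) (hx : x ∈ C)
    (hax : ¬ Commute a x) (hbx : ¬ Commute b x) : Commute (a⁻¹ * b) x := by
  have e1 := anti h ha hx hax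
  have e2 := anti h hb hx hbx
  have hz : z * z = 1 := by rw [← pow_two]; exact z_sq h
  have e3 : a⁻¹ * x = z * (x * a⁻¹) := by
    apply mul_left_cancel (a := a)
    rw [mul_inv_cancel_left, ← mul_assoc a z, ← (h.central a ha).eq, mul_assoc z, ← mul_assoc a x, e1,
      ← mul_assoc, ← mul_assoc, hz, one_mul, mul_assoc, mul_inv_cancel, mul_one]
  show a⁻¹ * b * x = x * (a⁻¹ * b)
  rw [mul_assoc, e2, ← mul_assoc, ← (h.central _ (C.inv_mem ha)).eq, mul_assoc z, ← mul_assoc a⁻¹ x, e3,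
    ← mul_assoc, ← mul_assoc, hz, one_mul, mul_assoc]

theorem comm_sup {A B : Subgroup G} (hA : ∀ a ∈ A, ∀ b ∈ A, Commute a b) (hB : ∀ a ∈ B, ∀ b ∈ B, Commute a b)
    (hAB : ∀ a ∈ A, ∀ b ∈ B, Commute a b) : ∀ a ∈ A ⊔ B, ∀ b ∈ A ⊔ B, Commute a b := by
  have h1 : A ⊔ B ≤ Subgroup.centralizer (A : Set G) := sup_le
    (fun a ha => Subgroup.mem_centralizer_iff.mpr fun b hb => (hA b hb a ha).eq)
    (fun a ha => Subgroup.mem_centralizer_iff.mpr fun b hb => (hAB b hb a ha).eq)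
  have h2 : A ⊔ B ≤ Subgroup.centralizer (B : Set G) := sup_le
    (fun a ha => Subgroup.mem_centralizer_iff.mpr fun b hb => (hAB a ha b hb).symm.eq)
    (fun a ha => Subgroup.mem_centralizer_iff.mpr fun b hb => (hB b hb a ha).eq)
  have h3 : A ⊔ B ≤ Subgroup.centralizer ((A ⊔ B : Subgroup G) : Set G) :=
    sup_le (Subgroup.le_centralizer_iff.mp h1) (Subgroup.le_centralizer_iff.mp h2)
  exact fun a ha b hb => (Subgroup.mem_centralizer_iff.mp (h3 hb) a ha)

theorem comm_zpowers (g : G) : ∀ a ∈ Subgroup.zpowers g, ∀ b ∈ Subgroup.zpowers g, Commute a b := by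
  rintro a ⟨i, rfl⟩ b ⟨j, rfl⟩
  exact Commute.zpow_zpow (Commute.refl g) i j

theorem commute_zpowers {g a : G} (h : Commute a g) : ∀ b ∈ Subgroup.zpowers g, Commute a b := by
  rintro b ⟨j, rfl⟩
  exact h.zpow_right j

theorem elem_sup {A : Subgroup G} (hA : Elem A) {g : G} (hg : g ^ 2 = 1) (hcg : ∀ a ∈ A, Commute a g) :
    Elem (A ⊔ Subgroup.zpowers g) := by
  have hc := comm_sup hA.1 (comm_zpowers g) (fun a ha => commute_zpowers (hcg a ha))
  refine ⟨hc, fun a ha => ?_⟩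
  rw [Subgroup.sup_eq_closure] at ha
  have hle : ∀ b ∈ Subgroup.closure ((A : Set G) ∪ ↑(Subgroup.zpowers g)), b ∈ A ⊔ Subgroup.zpowers g := fun b hb => by
    rwa [Subgroup.sup_eq_closure]
  induction ha using Subgroup.closure_induction with
  | mem b hb =>
    rcases hb with hb | ⟨j, rfl⟩
    · exact hA.2 b hb
    · rw [← zpow_natCast, zpow_comm, zpow_natCast, hg, one_zpow]
  | one => exact one_pow 2
  | mul b c hb hc' eb ec => rw [(hc b (hle b hb) c (hle c hc')).mul_pow, eb, ec, one_mul]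
  | inv b _ eb => rw [inv_pow, eb, inv_one]

theorem two_mul_le_sup {A : Subgroup G} {g : G} (hg : g ∉ A) :
    2 * Nat.card A ≤ Nat.card ↥(A ⊔ Subgroup.zpowers g) :=
  CfsgLib.Extra2.card_two_mul_le (lt_of_le_of_ne le_sup_left fun e => hg (by
    rw [e]; exact Subgroup.mem_sup_right (Subgroup.mem_zpowers g)))

theorem sup_eq_two_mul {A : Subgroup G} {g : G} (hg : g ∉ A) (hg2 : g ^ 2 = 1) (hcg : ∀ a ∈ A, Commute a g) :
    Nat.card ↥(A ⊔ Subgroup.zpowers g) = 2 * Nat.card A := by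
  refine le_antisymm ?_ (two_mul_le_sup hg)
  have hcomm : ∀ (a : A) (b : Subgroup.zpowers g), Commute (A.subtype a) ((Subgroup.zpowers g).subtype b) :=
    fun a b => commute_zpowers (hcg a a.2) b b.2
  have hr : (MonoidHom.noncommCoprod A.subtype (Subgroup.zpowers g).subtype hcomm).range = A ⊔ Subgroup.zpowers g := by
    rw [MonoidHom.noncommCoprod_range, Subgroup.range_subtype, Subgroup.range_subtype]
  rw [← hr]
  refine (Nat.card_le_card_of_surjective _ (MonoidHom.rangeRestrict_surjective _)).trans ?_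
  rw [Nat.card_prod, Nat.card_zpowers, mul_comm]
  exact Nat.mul_le_mul_right _ (orderOf_le_of_pow_eq_one (by norm_num) hg2)

section pair

variable {x y : G}

theorem sq_yx (h : Ext 2 z C) (hP : Pair z C x y) : (y * x) ^ 2 = z * (y ^ 2 * x ^ 2) := by
  rw [pow_two, pow_two, pow_two]
  calc y * x * (y * x) = y * (x * y) * x := by group
    _ = (y * z) * (y * x) * x := by rw [hP.hxy]; group
    _ = (z * y) * (y * x) * x := by rw [(h.central y hP.hy).eq]
    _ = _ := by group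

theorem form_bijective (h : Ext 2 z C) (hP : Pair z C x y) :
    Function.Bijective (fun t : (Fin 2 × Fin 2) × rest C x y =>
      (⟨y ^ (t.1.1 : ℕ) * x ^ (t.1.2 : ℕ) * (t.2 : G),
        C.mul_mem (C.mul_mem (C.pow_mem hP.hy _) (C.pow_mem hP.hx _)) (inf_le_left (α := Subgroup G) t.2.2)⟩ : C)) := by
  rw [Nat.bijective_iff_injective_and_card]
  constructor
  · rintro ⟨⟨a, b⟩, d⟩ ⟨⟨a', b'⟩, d'⟩ e
    have e' := congrArg Subtype.val e
    simp only [← zpow_natCast] at e'
    obtain ⟨ha, hb⟩ := hP.uniq h d.2 d'.2 e'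
    replace ha : (2 : ℤ) ∣ ((a' : ℕ) : ℤ) - ((a : ℕ) : ℤ) := ha
    replace hb : (2 : ℤ) ∣ ((b' : ℕ) : ℤ) - ((b : ℕ) : ℤ) := hb
    have := a.isLt; have := a'.isLt; have := b.isLt; have := b'.isLt
    have ha' : a = a' := Fin.ext (by omega)
    have hb' : b = b' := Fin.ext (by omega)
    subst ha' hb'
    exact Prod.ext rfl (Subtype.ext (mul_left_cancel e'))
  · rw [Nat.card_prod, Nat.card_prod, Nat.card_fin, hP.card_eq h]

theorem count_one {w : G} (hw : w ^ 2 = 1) (hc : ∀ d ∈ rest C x y, Commute w d) :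
    Nat.card {d : rest C x y // (w * (d : G)) ^ 2 = 1} = sqOne (rest C x y) :=
  Nat.card_congr (Equiv.subtypeEquivRight fun d => by rw [(hc d d.2).mul_pow, hw, one_mul])

theorem count_z (h : Ext 2 z C) (hP : Pair z C x y) {w : G} (hw : w ^ 2 = z) (hc : ∀ d ∈ rest C x y, Commute w d) :
    Nat.card {d : rest C x y // (w * (d : G)) ^ 2 = 1} + sqOne (rest C x y) = Nat.card (rest C x y) := by
  classical
  have h1 : Nat.card {d : rest C x y // (w * (d : G)) ^ 2 = 1} = Nat.card {d : rest C x y // ¬ (d : G) ^ 2 = 1} :=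
    Nat.card_congr (Equiv.subtypeEquivRight fun d => by
      rw [(hc d d.2).mul_pow, hw]
      rcases sq_cases (hP.ext_rest h) d.2 with e | e
      · simp [e, z_ne h]
      · rw [e, ← pow_two, z_sq h]; simp [z_ne h])
  rw [h1, add_comm, sqOne, ← Nat.card_sum]
  exact Nat.card_congr (Equiv.sumCompl fun d : rest C x y => (d : G) ^ 2 = 1)

theorem sqOne_split (h : Ext 2 z C) (hP : Pair z C x y) :
    sqOne C = Nat.card {d : rest C x y // (1 * (d : G)) ^ 2 = 1} + Nat.card {d : rest C x y // (x * (d : G)) ^ 2 = 1} +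
      (Nat.card {d : rest C x y // (y * (d : G)) ^ 2 = 1} + Nat.card {d : rest C x y // (y * x * (d : G)) ^ 2 = 1}) := by
  classical
  have e : {t : (Fin 2 × Fin 2) × rest C x y // (y ^ (t.1.1 : ℕ) * x ^ (t.1.2 : ℕ) * (t.2 : G)) ^ 2 = 1} ≃
      {a : C // (a : G) ^ 2 = 1} := (Equiv.ofBijective _ (form_bijective h hP)).subtypeEquiv fun t => Iff.rfl
  rw [sqOne, ← Nat.card_congr e, Nat.card_congr (Equiv.subtypeProdEquivSigmaSubtype
    (fun (w : Fin 2 × Fin 2) (d : rest C x y) => (y ^ (w.1 : ℕ) * x ^ (w.2 : ℕ) * (d : G)) ^ 2 = 1)), Nat.card_sigma,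
    Fintype.sum_prod_type, Fin.sum_univ_two, Fin.sum_univ_two, Fin.sum_univ_two]
  simp

theorem commute_pair {d : G} (hd : d ∈ rest C x y) : Commute x d ∧ Commute y d ∧ Commute (y * x) d := by
  obtain ⟨-, h1, h2⟩ := mem_rest.mp hd
  exact ⟨h1.symm, h2.symm, h2.symm.mul_left h1.symm⟩

theorem sqOne_hyper (h : Ext 2 z C) (hP : Pair z C x y) (hx : x ^ 2 = 1) (hy : y ^ 2 = 1) :
    sqOne C = 2 * sqOne (rest C x y) + Nat.card (rest C x y) := by
  have h3 := count_z h hP (w := y * x) (by rw [sq_yx h hP, hx, hy, mul_one, mul_one]) (fun d hd => (commute_pair hd).2.2)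
  rw [sqOne_split h hP, count_one (one_pow 2) (fun d _ => Commute.one_left d),
    count_one hx (fun d hd => (commute_pair hd).1), count_one hy (fun d hd => (commute_pair hd).2.1)]
  omega

theorem sqOne_quat (h : Ext 2 z C) (hP : Pair z C x y) (hx : x ^ 2 = z) (hy : y ^ 2 = z) :
    sqOne C + 2 * sqOne (rest C x y) = 3 * Nat.card (rest C x y) := by
  have h1 := count_z h hP hx (fun d hd => (commute_pair hd).1)
  have h2 := count_z h hP hy (fun d hd => (commute_pair hd).2.1)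
  have h3 := count_z h hP (w := y * x)
    (by rw [sq_yx h hP, hx, hy, ← pow_two, z_sq h, mul_one]) (fun d hd => (commute_pair hd).2.2)
  rw [sqOne_split h hP, count_one (one_pow 2) (fun d _ => Commute.one_left d)]
  omega

end pair

theorem base (h : Ext 2 z C) (hc : Nat.card C = 2) :
    sqOne C = 2 ∧ Elem (Subgroup.zpowers z) ∧ C = Subgroup.zpowers z := by
  have hC : Subgroup.zpowers z = C := Subgroup.eq_of_le_of_card_ge (Subgroup.zpowers_le.mpr h.mem)
    (by rw [Nat.card_zpowers, h.ord, hc])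
  have hsq : ∀ a ∈ Subgroup.zpowers z, a ^ 2 = 1 := by
    rintro a ⟨j, rfl⟩
    rw [← zpow_natCast, zpow_comm, zpow_natCast, z_sq h, one_zpow]
  refine ⟨?_, ⟨comm_zpowers z, hsq⟩, hC.symm⟩
  rw [sqOne, Nat.card_congr (Equiv.subtypeUnivEquiv fun a : C => hsq a (hC.symm ▸ a.2)), hc]

/-- The main induction. -/
theorem main : ∀ (n : ℕ) (C : Subgroup G), Nat.card C = n → Ext 2 z C →
    ∃ m : ℕ, Nat.card C = 2 ^ (2 * m + 1) ∧
      (∀ A : Subgroup G, A ≤ C → (∀ a ∈ A, ∀ b ∈ A, Commute a b) → Nat.card A ≤ 2 ^ (m + 1)) ∧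
      ((sqOne C = 2 ^ (2 * m) + 2 ^ m ∧ ∃ A, A ≤ C ∧ Elem A ∧ Nat.card A = 2 ^ (m + 1)) ∨
        (sqOne C + 2 ^ m = 2 ^ (2 * m) ∧ ∃ A, A ≤ C ∧ Elem A ∧ Nat.card A = 2 ^ m)) := by
  intro n
  induction n using Nat.strong_induction_on with
  | _ n ih =>
    intro C hc h
    rcases card_cases h with h2 | ⟨x₀, y₀, hP₀⟩
    · obtain ⟨hs, he, hC⟩ := base h h2
      refine ⟨0, h2.trans (by norm_num), fun A hA _ => (Subgroup.card_le_of_le hA).trans (by rw [h2]; norm_num),
        Or.inl ⟨hs, _, hC.ge, he, by rw [← hC, h2]; norm_num⟩⟩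
    obtain ⟨x, y, hP, hsq⟩ : ∃ x y, Pair z C x y ∧
        ((x ^ 2 = 1 ∧ y ^ 2 = 1) ∨ (x ^ 2 = z ∧ y ^ 2 = z ∧ Nat.card (rest C x y) ≤ 2)) := by
      by_cases hh : Hyper z C
      · obtain ⟨x, y, hP, h1, h2⟩ := hh
        exact ⟨x, y, hP, Or.inl ⟨h1, h2⟩⟩
      · exact ⟨x₀, y₀, hP₀, Or.inr ⟨(small h hh hP₀).1, (small h hh hP₀).2,
          not_lt.mp fun hb => hh (hyper_of_big h hP₀ hb)⟩⟩
    obtain ⟨hcard, hlt, hge⟩ := card_rest_lt h hP
    set R := rest C x y with hR
    have hRC : R ≤ C := inf_le_left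
    obtain ⟨m, hm, hub, hN⟩ := ih _ (hc ▸ hlt) R rfl (hP.ext_rest h)
    have h4 : Nat.card C = 4 * Nat.card R := by rw [← hcard]
    refine ⟨m + 1, by rw [h4, hm]; ring, ?_, ?_⟩
    · intro A hA hAc
      set A₁ := A ⊓ Subgroup.centralizer {x} with hA₁
      set A₀ := A₁ ⊓ Subgroup.centralizer {y} with hA₀
      have m1 : ∀ a, a ∈ A₁ ↔ a ∈ A ∧ Commute a x := fun a => by
        rw [hA₁, Subgroup.mem_inf, Subgroup.mem_centralizer_singleton_iff]; exact and_congr_right fun _ => Iff.rfl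
      have m0 : ∀ a, a ∈ A₀ ↔ a ∈ A₁ ∧ Commute a y := fun a => by
        rw [hA₀, Subgroup.mem_inf, Subgroup.mem_centralizer_singleton_iff]; exact and_congr_right fun _ => Iff.rfl
      have hA₀R : A₀ ≤ R := fun a ha => by
        obtain ⟨ha1, hay⟩ := (m0 a).mp ha
        exact mem_rest.mpr ⟨hA ((m1 a).mp ha1).1, ((m1 a).mp ha1).2, hay⟩
      have hc0 : ∀ a ∈ A₀, ∀ b ∈ A₀, Commute a b := fun a ha b hb =>
        hAc a ((m1 a).mp ((m0 a).mp ha).1).1 b ((m1 b).mp ((m0 b).mp hb).1).1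
      have hb0 := hub A₀ hA₀R hc0
      have i1 : Nat.card A ≤ 2 * Nat.card A₁ := CfsgLib.Extra2.card_le_two_mul fun a ha b hb na nb =>
        (m1 _).mpr ⟨A.mul_mem (A.inv_mem ha) hb, anti_mul h (hA ha) (hA hb) hP.hx
          (fun e => na ((m1 a).mpr ⟨ha, e⟩)) (fun e => nb ((m1 b).mpr ⟨hb, e⟩))⟩
      have i0 : Nat.card A₁ ≤ 2 * Nat.card A₀ := CfsgLib.Extra2.card_le_two_mul fun a ha b hb na nb =>
        (m0 _).mpr ⟨A₁.mul_mem (A₁.inv_mem ha) hb, anti_mul h (hA ((m1 a).mp ha).1) (hA ((m1 b).mp hb).1) hP.hy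
          (fun e => na ((m0 a).mpr ⟨ha, e⟩)) (fun e => nb ((m0 b).mpr ⟨hb, e⟩))⟩
      have hp : 2 ^ (m + 1 + 1) = 2 * 2 ^ (m + 1) := by ring
      by_cases e1 : A ≤ A₁
      · have := Subgroup.card_le_of_le e1; omega
      by_cases e0 : A₁ ≤ A₀
      · have := Subgroup.card_le_of_le e0; omega
      obtain ⟨a, haA, ha1⟩ := SetLike.not_le_iff_exists.mp e1
      obtain ⟨b, hb1, hb0'⟩ := SetLike.not_le_iff_exists.mp e0
      obtain ⟨hbA, hbx⟩ := (m1 b).mp hb1
      have hby : ¬ Commute b y := fun e => hb0' ((m0 b).mpr ⟨hb1, e⟩)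
      have hxy : ¬ Commute x y := fun e => z_ne h (by
        have := hP.hxy
        rwa [e.eq, right_eq_mul] at this)
      set e := x⁻¹ * b with he
      have heR : e ∈ R := mem_rest.mpr ⟨C.mul_mem (C.inv_mem hP.hx) (hA hbA),
        ((Commute.refl x).inv_left).mul_left hbx, anti_mul h hP.hx (hA hbA) hP.hy hxy hby⟩
      have hec : ∀ c ∈ A₀, Commute c e := fun c hc' => by
        obtain ⟨hc1, -⟩ := (m0 c).mp hc'
        exact ((m1 c).mp hc1).2.inv_right.mul_right (hAc c ((m1 c).mp hc1).1 b hbA)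
      have heA : e ∉ A₀ := by
        intro he'
        have hxA : x ∈ A := by
          have : x = b * e⁻¹ := by rw [he]; group
          rw [this]
          exact A.mul_mem hbA (A.inv_mem ((m1 e).mp ((m0 e).mp he').1).1)
        exact ha1 ((m1 a).mpr ⟨haA, hAc a haA x hxA⟩)
      have h5 := hub (A₀ ⊔ Subgroup.zpowers e) (sup_le hA₀R (Subgroup.zpowers_le.mpr heR))
        (comm_sup hc0 (comm_zpowers e) fun c hc' => commute_zpowers (hec c hc'))
      have h6 := two_mul_le_sup heA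
      omega
    · rcases hsq with ⟨hx, hy⟩ | ⟨hx, hy, hsmall⟩
      · have hN' : sqOne C = 2 * sqOne R + Nat.card R := sqOne_hyper h hP hx hy
        have hxR : x ∉ R := fun e => z_ne h (by
          have := hP.hxy
          rwa [(mem_rest.mp e).2.2.eq, right_eq_mul] at this)
        have key : ∀ A, A ≤ R → Elem A → ∃ B, B ≤ C ∧ Elem B ∧ Nat.card B = 2 * Nat.card A := fun A hA hAe =>
          ⟨A ⊔ Subgroup.zpowers x, sup_le (hA.trans hRC) (Subgroup.zpowers_le.mpr hP.hx),
            elem_sup hAe hx (fun a ha => (mem_rest.mp (hA ha)).2.1), sup_eq_two_mul (fun e => hxR (hA e)) hx (fun a ha => (mem_rest.mp (hA ha)).2.1)⟩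
        have e1 : 2 ^ (2 * (m + 1)) = 4 * 2 ^ (2 * m) := by ring
        have e2 : 2 ^ (2 * m + 1) = 2 * 2 ^ (2 * m) := by ring
        have e3 : 2 ^ (m + 1) = 2 * 2 ^ m := by ring
        rcases hN with ⟨hs, A, hAR, hAe, hAc⟩ | ⟨hs, A, hAR, hAe, hAc⟩
        · obtain ⟨B, hBC, hBe, hBcard⟩ := key A hAR hAe
          exact Or.inl ⟨by rw [hN']; omega, B, hBC, hBe, by rw [hBcard, hAc]; ring⟩
        · obtain ⟨B, hBC, hBe, hBcard⟩ := key A hAR hAe
          exact Or.inr ⟨by rw [hN']; omega, B, hBC, hBe, by rw [hBcard, hAc]; ring⟩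
      · obtain ⟨hs, he, hRz⟩ := base (hP.ext_rest h) (le_antisymm hsmall hge)
        have hm0 : m = 0 := by
          have : 2 ^ (2 * m + 1) = 2 ^ 1 := by rw [← hm, le_antisymm hsmall hge]; norm_num
          have := Nat.pow_right_injective le_rfl this
          omega
        subst hm0
        have hN' : sqOne C + 2 * sqOne R = 3 * Nat.card R := sqOne_quat h hP hx hy
        refine Or.inr ⟨by rw [hs, le_antisymm hsmall hge] at hN'; omega, Subgroup.zpowers z,
          Subgroup.zpowers_le.mpr h.mem, he, by rw [Nat.card_zpowers, h.ord]; norm_num⟩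

theorem exists_not_commute (h : Ext 2 z C) {A : Subgroup G} (hA : A ≤ C) {m : ℕ}
    (hub : ∀ B : Subgroup G, B ≤ C → (∀ a ∈ B, ∀ b ∈ B, Commute a b) → Nat.card B ≤ 2 ^ (m + 1))
    (hAe : Elem A) (hAcard : Nat.card A = 2 ^ (m + 1)) {g : G} (hg : g ∈ C) (hgA : g ∉ A) :
    ∃ a ∈ A, ¬ Commute g a := by
  by_contra hh
  push Not at hh
  have h1 := hub (A ⊔ Subgroup.zpowers g) (sup_le hA (Subgroup.zpowers_le.mpr hg))
    (comm_sup hAe.1 (comm_zpowers g) fun a ha => commute_zpowers (hh a ha).symm)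
  have h2 := two_mul_le_sup hgA
  have : 0 < 2 ^ (m + 1) := by positivity
  omega

theorem z_mem (h : Ext 2 z C) {A : Subgroup G} (hA : A ≤ C) {m : ℕ}
    (hub : ∀ B : Subgroup G, B ≤ C → (∀ a ∈ B, ∀ b ∈ B, Commute a b) → Nat.card B ≤ 2 ^ (m + 1))
    (hAe : Elem A) (hAcard : Nat.card A = 2 ^ (m + 1)) : z ∈ A := by
  by_contra hz
  obtain ⟨a, ha, hna⟩ := exists_not_commute h hA hub hAe hAcard h.mem hz
  exact hna (h.central a (hA ha))

/-- A maximal elementary abelian subgroup of the largest possible order forces the plus count. -/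
theorem count_of_elem (h : Ext 2 z C) {A : Subgroup G} (hA : A ≤ C) {m : ℕ} (hm : Nat.card C = 2 ^ (2 * m + 1))
    (hub : ∀ B : Subgroup G, B ≤ C → (∀ a ∈ B, ∀ b ∈ B, Commute a b) → Nat.card B ≤ 2 ^ (m + 1))
    (hAe : Elem A) (hAcard : Nat.card A = 2 ^ (m + 1)) : sqOne C = 2 ^ (2 * m) + 2 ^ m := by
  classical
  let pick : G → G := fun g => Classical.epsilon fun a => a ∈ A ∧ ¬ Commute g a
  have hpick : ∀ g ∈ C, g ∉ A → pick g ∈ A ∧ ¬ Commute g (pick g) := fun g hg hgA =>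
    Classical.epsilon_spec (exists_not_commute h hA hub hAe hAcard hg hgA)
  have hinv : ∀ g ∈ C, g ∉ A → pick (g * pick g) = pick g ∧ g * pick g ∉ A ∧ g * pick g ∈ C ∧
      (g * pick g) * pick g = g := by
    intro g hg hgA
    obtain ⟨ha, -⟩ := hpick g hg hgA
    refine ⟨?_, fun e => hgA ((Subgroup.mul_mem_cancel_right A ha).mp e), C.mul_mem hg (hA ha), ?_⟩
    · show Classical.epsilon _ = Classical.epsilon _
      congr 1
      funext a
      apply propext
      refine and_congr_right fun haA => not_congr ⟨fun e => ?_, fun e => e.mul_left (hAe.1 _ ha a haA)⟩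
      have := e.mul_left ((hAe.1 _ ha a haA).inv_left)
      rwa [mul_inv_cancel_right] at this
    · rw [mul_assoc, ← pow_two, hAe.2 _ ha, mul_one]
  have hflip : ∀ g ∈ C, g ∉ A → ((g * pick g) ^ 2 = 1 ↔ ¬ g ^ 2 = 1) := by
    intro g hg hgA
    obtain ⟨ha, hna⟩ := hpick g hg hgA
    have e : (g * pick g) ^ 2 = z * g ^ 2 := by
      have e1 := anti h (hA ha) hg (fun e => hna e.symm)
      calc (g * pick g) ^ 2 = g * (pick g * g) * pick g := by rw [pow_two]; group
        _ = (g * z) * g * (pick g * pick g) := by rw [e1]; group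
        _ = z * g ^ 2 := by rw [← pow_two (pick g), hAe.2 _ ha, mul_one, ← (h.central g hg).eq, mul_assoc, ← pow_two]
    rw [e]
    rcases sq_cases h hg with s | s
    · simp [s, z_ne h]
    · rw [s, ← pow_two, z_sq h]; simp [z_ne h]
  have e1 : {g : C // (g : G) ∉ A ∧ (g : G) ^ 2 = 1} ≃ {g : C // (g : G) ∉ A ∧ ¬ (g : G) ^ 2 = 1} :=
    { toFun := fun g => ⟨⟨g.1 * pick g.1, (hinv g.1 g.1.2 g.2.1).2.2.1⟩, (hinv g.1 g.1.2 g.2.1).2.1,
        fun e => (hflip g.1 g.1.2 g.2.1).mp e g.2.2⟩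
      invFun := fun g => ⟨⟨g.1 * pick g.1, (hinv g.1 g.1.2 g.2.1).2.2.1⟩, (hinv g.1 g.1.2 g.2.1).2.1,
        (hflip g.1 g.1.2 g.2.1).mpr g.2.2⟩
      left_inv := fun g => Subtype.ext (Subtype.ext (by
        show (g.1 : G) * pick g.1 * pick ((g.1 : G) * pick g.1) = g.1
        rw [(hinv g.1 g.1.2 g.2.1).1, (hinv g.1 g.1.2 g.2.1).2.2.2]))
      right_inv := fun g => Subtype.ext (Subtype.ext (by
        show (g.1 : G) * pick g.1 * pick ((g.1 : G) * pick g.1) = g.1
        rw [(hinv g.1 g.1.2 g.2.1).1, (hinv g.1 g.1.2 g.2.1).2.2.2])) }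
  have hA' : Nat.card {g : C // (g : G) ∈ A} = Nat.card A :=
    Nat.card_congr { toFun := fun g => ⟨g.1, g.2⟩, invFun := fun a => ⟨⟨a, hA a.2⟩, a.2⟩,
                     left_inv := fun g => rfl, right_inv := fun a => rfl }
  have hs : sqOne C = Nat.card A + Nat.card {g : C // (g : G) ∉ A ∧ (g : G) ^ 2 = 1} := by
    rw [← hA', sqOne, ← Nat.card_congr (Equiv.sumCompl fun g : {g : C // (g : G) ^ 2 = 1} => (g.1 : G) ∈ A), Nat.card_sum]
    refine congrArg₂ (· + ·) (Nat.card_congr ((Equiv.subtypeSubtypeEquivSubtypeInter _ (fun g : C => (g : G) ∈ A)).trans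
      (Equiv.subtypeEquivRight fun g => ⟨fun e => e.2, fun e => ⟨hAe.2 _ e, e⟩⟩))) (Nat.card_congr
      ((Equiv.subtypeSubtypeEquivSubtypeInter _ (fun g : C => (g : G) ∉ A)).trans (Equiv.subtypeEquivRight fun g => and_comm)))
  have hs' : Nat.card C = Nat.card A + (Nat.card {g : C // (g : G) ∉ A ∧ (g : G) ^ 2 = 1} +
      Nat.card {g : C // (g : G) ∉ A ∧ ¬ (g : G) ^ 2 = 1}) := by
    rw [← hA', ← Nat.card_congr (Equiv.sumCompl fun g : C => (g : G) ∈ A), Nat.card_sum,
      ← Nat.card_congr (Equiv.sumCompl fun g : {g : C // (g : G) ∉ A} => (g.1 : G) ^ 2 = 1), Nat.card_sum]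
    exact congrArg _ (congrArg₂ (· + ·) (Nat.card_congr (Equiv.subtypeSubtypeEquivSubtypeInter _ (fun g : C => (g : G) ^ 2 = 1)))
      (Nat.card_congr (Equiv.subtypeSubtypeEquivSubtypeInter _ (fun g : C => ¬ (g : G) ^ 2 = 1))))
  rw [← Nat.card_congr e1, hm, hAcard, show 2 ^ (2 * m + 1) = 2 * 2 ^ (2 * m) by ring, show 2 ^ (m + 1) = 2 * 2 ^ m by ring] at hs'
  rw [hs, hAcard, show 2 ^ (m + 1) = 2 * 2 ^ m by ring]
  omega

/-- The order and the number of square roots of the identity determine the group. -/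
theorem rel_of_sqOne {H : Type v} [Group H] [Finite H] {z' : H} : ∀ (n : ℕ) (C : Subgroup G) (C' : Subgroup H),
    Nat.card C = n → Nat.card C' = n → Ext 2 z C → Ext 2 z' C' → sqOne C = sqOne C' → Rel z C z' C' := by
  intro n
  induction n using Nat.strong_induction_on with
  | _ n ih =>
    intro C C' hc hc' h h' hs
    by_cases hn : n = 2
    · exact rel_of_card_eq_prime h h' (hc.trans hn) (hc'.trans hn)
    obtain ⟨x, y, P⟩ := (card_cases h).resolve_left (by omega)
    obtain ⟨x', y', P'⟩ := (card_cases h').resolve_left (by omega)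
    obtain ⟨r, l, g⟩ := card_rest_lt h P
    obtain ⟨r', l', g'⟩ := card_rest_lt h' P'
    by_cases hbig : 2 < Nat.card (rest C x y)
    · obtain ⟨a, b, Q, s, t⟩ := hyper_of_big h P hbig
      obtain ⟨a', b', Q', s', t'⟩ := hyper_of_big h' P' (by omega)
      obtain ⟨q, m1, -⟩ := card_rest_lt h Q
      obtain ⟨q', -, -⟩ := card_rest_lt h' Q'
      have e := sqOne_hyper h Q s t
      have e' := sqOne_hyper h' Q' s' t'
      exact glue h h' Q Q' (i := 0) (j := 0) (by simpa using s) (by simpa using s') (by simpa using t) (by simpa using t')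
        (ih _ (hc ▸ m1) _ _ rfl (by omega) (Q.ext_rest h) (Q'.ext_rest h') (by omega))
    · have h8 : ∀ {K : Type max u v}, True := fun {_} => trivial
      have hiff : Hyper z C ↔ Hyper z' C' := by
        have key : ∀ {K : Type u} [Group K] [Finite K] {w : K} {D : Subgroup K} {a b : K}, Ext 2 w D → Pair w D a b →
            Nat.card D = 8 → (Hyper w D ↔ sqOne D = 6) := by
          intro K _ _ w D a b hh PP c8
          constructor
          · rintro ⟨a₁, b₁, Q, s, t⟩
            obtain ⟨q, -, -⟩ := card_rest_lt hh Q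
            rw [sqOne_hyper hh Q s t, (base (Q.ext_rest hh) (by omega)).1]
            omega
          · intro h6
            by_contra hn'
            obtain ⟨q, -, -⟩ := card_rest_lt hh PP
            have := sqOne_quat hh PP (small hh hn' PP).1 (small hh hn' PP).2
            rw [(base (PP.ext_rest hh) (by omega)).1] at this
            omega
        rw [key h P (by omega), hs]
        refine (Iff.symm ?_)
        constructor
        · rintro ⟨a₁, b₁, Q, s, t⟩
          obtain ⟨q, -, -⟩ := card_rest_lt h' Q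
          rw [sqOne_hyper h' Q s t, (base (Q.ext_rest h') (by omega)).1]
          omega
        · intro h6
          by_contra hn'
          have := sqOne_quat h' P' (small h' hn' P').1 (small h' hn' P').2
          rw [(base (P'.ext_rest h') (by omega)).1] at this
          omega
      exact rel_eight h h' P P' (by omega) (by omega) hiff

end CfsgLib.Extra2.Classify
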