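import Mathlib
import Cfsg.Agent.Lib.Extra2.Classify

/-!
# Extraspecial 2-groups as abstract groups
-/

set_option autoImplicit false

namespace CfsgLib.Extra2.Classify

open CfsgLib.ExtraIso

universe u v

variable {E : Type u} [Group E] [Finite E]

theorem sqOne_top : sqOne (⊤ : Subgroup E) = Nat.card {x : E // x ^ 2 = 1} :=
  Nat.card_congr (Subgroup.topEquiv.toEquiv.subtypeEquiv fun _ => Iff.rfl)

theorem top_main (hE : Cfsg.IsExtraspecial 2 E) :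
    ∃ (z : E) (m : ℕ), Ext 2 z (⊤ : Subgroup E) ∧ 1 ≤ m ∧ Nat.card E = 2 ^ (2 * m + 1) ∧
      (∀ A : Subgroup E, A ≤ ⊤ → (∀ a ∈ A, ∀ b ∈ A, Commute a b) → Nat.card A ≤ 2 ^ (m + 1)) ∧
      ((Nat.card {x : E // x ^ 2 = 1} = 2 ^ (2 * m) + 2 ^ m ∧ ∃ A : Subgroup E, Elem A ∧ Nat.card A = 2 ^ (m + 1)) ∨
        (Nat.card {x : E // x ^ 2 = 1} + 2 ^ m = 2 ^ (2 * m) ∧ ∃ A : Subgroup E, Elem A ∧ Nat.card A = 2 ^ m)) := by
  haveI : Fact (Nat.Prime 2) := ⟨Nat.prime_two⟩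
  obtain ⟨z, hz⟩ := ext_top hE
  obtain ⟨m, hm, hub, hN⟩ := main _ (⊤ : Subgroup E) rfl hz
  rw [Subgroup.card_top] at hm
  refine ⟨z, m, hz, ?_, hm, hub, ?_⟩
  · by_contra hm0
    obtain ⟨⟨-, -, hcom⟩, hc⟩ := hE
    obtain rfl : m = 0 := by omega
    have htop : Subgroup.center E = ⊤ := Subgroup.eq_top_of_card_eq _ (by rw [hc, hm]; norm_num)
    have hbot : commutator E = ⊥ := by
      rw [commutator_def, Subgroup.commutator_eq_bot_iff_le_centralizer, Subgroup.coe_top,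
        Subgroup.centralizer_univ, htop]
    rw [hcom, htop] at hbot
    have hh := congrArg (fun K : Subgroup E => Nat.card K) hbot
    simp only [Subgroup.card_top, Subgroup.card_bot, hm] at hh
    norm_num at hh
  · rw [sqOne_top] at hN
    rcases hN with ⟨hs, A, -, hA, hc⟩ | ⟨hs, A, -, hA, hc⟩
    · exact Or.inl ⟨hs, A, hA, hc⟩
    · exact Or.inr ⟨hs, A, hA, hc⟩

theorem iso_of_sqOne {E' : Type v} [Group E'] [Finite E'] (hE : Cfsg.IsExtraspecial 2 E) (hE' : Cfsg.IsExtraspecial 2 E')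
    (hc : Nat.card E' = Nat.card E) (hs : Nat.card {x : E' // x ^ 2 = 1} = Nat.card {x : E // x ^ 2 = 1}) :
    Nonempty (E ≃* E') := by
  haveI : Fact (Nat.Prime 2) := ⟨Nat.prime_two⟩
  obtain ⟨z, hz⟩ := ext_top hE
  obtain ⟨z', hz'⟩ := ext_top hE'
  exact (rel_of_sqOne (Nat.card E) ⊤ ⊤ Subgroup.card_top (Subgroup.card_top.trans hc) hz hz'
    (by rw [sqOne_top, sqOne_top, hs])).nonempty

theorem rank_cases (hE : Cfsg.IsExtraspecial 2 E) {n : ℕ} (hn : Nat.card E = 2 ^ (2 * n + 1)) :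
    (Nat.card {x : E // x ^ 2 = 1} + 2 ^ n = 2 ^ (2 * n) ∧ Cfsg.PRankLE 2 n E ∧ ¬ Cfsg.PRankLE 2 (n - 1) E) ∨
    (Nat.card {x : E // x ^ 2 = 1} = 2 ^ (2 * n) + 2 ^ n ∧ Cfsg.PRankLE 2 (n + 1) E ∧ ¬ Cfsg.PRankLE 2 n E) := by
  haveI : Fact (Nat.Prime 2) := ⟨Nat.prime_two⟩
  obtain ⟨z, m, hz, hm1, hm, hub, hN⟩ := top_main hE
  obtain rfl : n = m := by
    have := Nat.pow_right_injective le_rfl (hn.symm.trans hm)
    omega
  have hcomm : ∀ A : Subgroup E, IsMulCommutative A → ∀ a ∈ A, ∀ b ∈ A, Commute a b := fun A hA a ha b hb =>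
    congrArg Subtype.val (hA.1.1 ⟨a, ha⟩ ⟨b, hb⟩)
  have hmc : ∀ A : Subgroup E, Elem A → IsMulCommutative A := fun A hA =>
    ⟨⟨fun a b => Subtype.ext (hA.1 a a.2 b b.2)⟩⟩
  rcases hN with ⟨hs, A, hA, hc⟩ | ⟨hs, A, hA, hc⟩
  · refine Or.inr ⟨hs, fun B hB _ => hub B le_top (hcomm B hB), fun hle => ?_⟩
    have := hle A (hmc A hA) hA.2
    rw [hc, pow_succ] at this
    have : 0 < 2 ^ n := by positivity
    omega
  · refine Or.inl ⟨hs, fun B hB hB2 => ?_, fun hle => ?_⟩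
    · by_contra hgt
      obtain ⟨j, hj⟩ : ∃ j, Nat.card B = 2 ^ j :=
        IsPGroup.iff_card.mp (fun b => ⟨1, Subtype.ext (by rw [pow_one, SubmonoidClass.coe_pow]; exact hB2 b b.2)⟩)
      have hle := hub B le_top (hcomm B hB)
      rw [hj] at hgt hle
      have h1 : n < j := (Nat.pow_lt_pow_iff_right (by norm_num)).mp (not_le.mp hgt)
      have h2 : j ≤ n + 1 := (Nat.pow_le_pow_iff_right (by norm_num)).mp hle
      have h3 := count_of_elem hz le_top (by rw [Subgroup.card_top, hm]) hub ⟨hcomm B hB, hB2⟩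
        (by rw [hj, show j = n + 1 by omega])
      rw [sqOne_top] at h3
      have : 0 < 2 ^ n := by positivity
      omega
    · have := hle A (hmc A hA) hA.2
      rw [hc, Nat.pow_le_pow_iff_right (by norm_num)] at this
      omega

theorem iso_of_rank {E' : Type v} [Group E'] [Finite E'] (hE : Cfsg.IsExtraspecial 2 E) (hE' : Cfsg.IsExtraspecial 2 E')
    {n : ℕ} (hn : Nat.card E = 2 ^ (2 * n + 1)) (hc : Nat.card E' = Nat.card E)
    (hr : ∀ k : ℕ, Cfsg.PRankLE 2 k E ↔ Cfsg.PRankLE 2 k E') : Nonempty (E ≃* E') := by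
  refine iso_of_sqOne hE hE' hc ?_
  rcases rank_cases hE hn with ⟨hs, hu, hl⟩ | ⟨hs, hu, hl⟩ <;>
    rcases rank_cases hE' (hc.trans hn) with ⟨hs', hu', hl'⟩ | ⟨hs', hu', hl'⟩
  · omega
  · exact absurd ((hr n).mp hu) hl'
  · exact absurd ((hr n).mpr hu') hl
  · omega

end CfsgLib.Extra2.Classify
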